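import Mathlib
import Cfsg.Agent.GHK.Basic
import Cfsg.Agent.GHK.E3a
import Cfsg.Agent.GT.PGroupElemAb

/-! Coordinates on a section of order 16. -/

set_option autoImplicit false
set_option linter.unusedSectionVars false

namespace Cfsg.Agent.GHK.E3

open Cfsg.Agent.Inv.Fz Cfsg.Agent.NE Subgroup
open scoped commutatorElement

variable {G : Type*} [Group G] [Finite G] {T N H : Subgroup G} {π : G → W} {g h a : G} {φ ψ : W → W}

/-- `π` induces an isomorphism `T / N → W`. -/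
structure Co (T N : Subgroup G) (π : G → W) : Prop where
  le : N ≤ T
  mul : ∀ a ∈ T, ∀ b ∈ T, π (a * b) = π a * π b
  ker : ∀ a ∈ T, π a = 1 ↔ a ∈ N
  surj : ∀ w, ∃ a ∈ T, π a = w

/-- `g` acts on `T / N` as `φ`. -/
def Ac (T : Subgroup G) (π : G → W) (g : G) (φ : W → W) : Prop :=
  g ∈ normalizer (T : Set G) ∧ ∀ a ∈ T, π (g * a * g⁻¹) = φ (π a)

theorem exists_co (hle : N ≤ T) (h2 : ∀ t ∈ T, t * t ∈ N) (hc : Nat.card T = 16 * Nat.card N) : ∃ π, Co T N π := by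
  classical
  haveI : (N.subgroupOf T).Normal := ⟨fun n hn t => by
    have e : ((t * n * t⁻¹ : T) : G) = t * n * (t * n) * (n : G)⁻¹ * ((t : G) * t)⁻¹ := by
      simp only [coe_mul, coe_inv]; group
    rw [mem_subgroupOf, e]
    exact mul_mem (mul_mem (h2 _ (t * n).2) (inv_mem hn)) (inv_mem (h2 _ t.2))⟩
  have s2 : ∀ q : T ⧸ N.subgroupOf T, q * q = 1 := fun q => by
    obtain ⟨t, rfl⟩ := QuotientGroup.mk_surjective q
    exact (QuotientGroup.eq_one_iff (t * t)).2 (h2 _ t.2)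
  have c16 : Nat.card (T ⧸ N.subgroupOf T) = Nat.card W := by
    have := (N.subgroupOf T).card_eq_card_quotient_mul_card_subgroup
    rw [hc, Nat.card_congr (subgroupOfEquivOfLe hle).toEquiv] at this
    rw [W.card]
    exact (Nat.eq_of_mul_eq_mul_right Nat.card_pos this).symm
  obtain ⟨e⟩ := GT.PG.nonempty_mulEquiv_of_elementary (p := 2)
    (⟨⟨fun a b => comm_of_sq (A := ⊤) (fun a _ => s2 a) trivial trivial⟩⟩ : IsMulCommutative (T ⧸ N.subgroupOf T))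
    (fun q => by rw [pow_two, s2]) (inferInstance : IsMulCommutative W) (fun q => by rw [pow_two, W.sq]) c16
  refine ⟨fun a => if h : a ∈ T then e (QuotientGroup.mk ⟨a, h⟩) else 1, hle, fun a ha b hb => ?_, fun a ha => ?_,
    fun w => ?_⟩
  · simp only [ha, hb, mul_mem ha hb, dif_pos, ← map_mul, ← QuotientGroup.mk_mul]; rfl
  · simp only [ha, dif_pos, EmbeddingLike.map_eq_one_iff, QuotientGroup.eq_one_iff, mem_subgroupOf]
  · obtain ⟨q, rfl⟩ := e.surjective w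
    obtain ⟨t, rfl⟩ := QuotientGroup.mk_surjective q
    exact ⟨t, t.2, by simp only [t.2, dif_pos]⟩

theorem Ac.mem (k : Ac T π g φ) (ha : a ∈ T) : g * a * g⁻¹ ∈ T := (conj_mem_norm k.1).2 ha

theorem Ac.mul (k : Ac T π g φ) (l : Ac T π h ψ) : Ac T π (g * h) fun u => φ (ψ u) :=
  ⟨mul_mem k.1 l.1, fun a ha => by rw [← conj_conj, k.2 _ (l.mem ha), l.2 a ha]⟩

theorem Ac.congr (k : Ac T π g φ) (e : ∀ u, φ u = ψ u) : Ac T π g ψ := ⟨k.1, fun a ha => by rw [k.2 a ha, e]⟩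

theorem Ac.inv (k : Ac T π g φ) (e : ∀ u, ψ (φ u) = u) : Ac T π g⁻¹ ψ :=
  ⟨inv_mem k.1, fun a ha => by
    have := k.2 _ ((conj_mem_norm (inv_mem k.1)).2 ha)
    rw [show g * (g⁻¹ * a * g⁻¹⁻¹) * g⁻¹ = a by group] at this
    rw [this, e]⟩

namespace Co
variable (c : Co T N π)
include c

theorem one : π 1 = 1 := (c.ker 1 (one_mem _)).2 (one_mem _)

theorem inv (ha : a ∈ T) : π a⁻¹ = π a := by
  have := c.mul _ (inv_mem ha) _ ha
  rw [inv_mul_cancel, c.one] at this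
  exact eq_inv_of_mul_eq_one_left this.symm

theorem eq_iff {b : G} (ha : a ∈ T) (hb : b ∈ T) : π a = π b ↔ a⁻¹ * b ∈ N := by
  rw [← c.ker _ (mul_mem (inv_mem ha) hb), c.mul _ (inv_mem ha) _ hb, c.inv ha]
  exact ⟨fun e => by rw [e, W.sq], fun e => eq_inv_of_mul_eq_one_left e⟩

theorem ac_in (hg : g ∈ T) : Ac T π g fun u => u :=
  ⟨le_normalizer hg, fun a ha => by
    rw [c.mul _ (mul_mem hg ha) _ (inv_mem hg), c.mul _ hg _ ha, c.inv hg, mul_right_comm, W.sq, one_mul]⟩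

theorem hom (k : Ac T π g φ) (u v : W) : φ (u * v) = φ u * φ v := by
  obtain ⟨a, ha, rfl⟩ := c.surj u
  obtain ⟨b, hb, rfl⟩ := c.surj v
  rw [← c.mul _ ha _ hb, ← k.2 _ (mul_mem ha hb), ← k.2 _ ha, ← k.2 _ hb, ← c.mul _ (k.mem ha) _ (k.mem hb), conj_mul']

theorem uniq (k : Ac T π g φ) (l : Ac T π g ψ) (u : W) : φ u = ψ u := by
  obtain ⟨a, ha, rfl⟩ := c.surj u
  rw [← k.2 a ha, l.2 a ha]

theorem exists_ac (h1 : g ∈ normalizer (T : Set G)) (h2 : g ∈ normalizer (N : Set G)) : ∃ φ, Ac T π g φ := by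
  choose κ hκ e using c.surj
  refine ⟨fun u => π (g * κ u * g⁻¹), h1, fun a ha => ?_⟩
  rw [c.eq_iff ((conj_mem_norm h1).2 ha) ((conj_mem_norm h1).2 (hκ _)),
    show (g * a * g⁻¹)⁻¹ * (g * κ (π a) * g⁻¹) = g * (a⁻¹ * κ (π a)) * g⁻¹ by group, conj_mem_norm h2,
    ← c.eq_iff ha (hκ _), e]

theorem comm (k : Ac T π g φ) (ha : a ∈ T) : ⁅g, a⁆ ∈ T ∧ π ⁅g, a⁆ = φ (π a) * π a := by
  rw [commutatorElement_def]
  exact ⟨mul_mem (k.mem ha) (inv_mem ha), by rw [c.mul _ (k.mem ha) _ (inv_mem ha), k.2 a ha, c.inv ha]⟩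

theorem comm_iff (k : Ac T π g φ) (ha : a ∈ T) : ⁅g, a⁆ ∈ N ↔ φ (π a) = π a := by
  rw [← c.ker _ (c.comm k ha).1, (c.comm k ha).2]
  exact ⟨fun e => eq_inv_of_mul_eq_one_left e, fun e => by rw [e, W.sq]⟩

theorem rebase (κ : W ≃* W) : Co T N fun a => κ.symm (π a) :=
  ⟨c.le, fun a ha b hb => by rw [c.mul a ha b hb, map_mul], fun a ha => by
    rw [EmbeddingLike.map_eq_one_iff, c.ker a ha], fun w => by
    obtain ⟨a, ha, e⟩ := c.surj (κ w)
    exact ⟨a, ha, by rw [e, κ.symm_apply_apply]⟩⟩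

omit c in
theorem _root_.Cfsg.Agent.GHK.E3.Ac.rebase (k : Ac T π g φ) (κ : W ≃* W) (e : ∀ u, φ (κ u) = κ (ψ u)) :
    Ac T (fun a => κ.symm (π a)) g ψ :=
  ⟨k.1, fun a ha => by
    show κ.symm (π _) = ψ (κ.symm (π a))
    rw [k.2 a ha, κ.symm_apply_eq, ← e, κ.apply_symm_apply]⟩

/-- A subgroup of `T` that covers `T / N`. -/
theorem le_sup {Y : Subgroup G} (hY : Y ≤ T) (h : ∀ u, ∃ b ∈ Y, π b = u) : T ≤ Y ⊔ N := fun a ha => by
  obtain ⟨b, hb, e⟩ := h (π a)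
  simpa using mul_mem (mem_sup_left hb : b ∈ Y ⊔ N) (mem_sup_right ((c.eq_iff (hY hb) ha).1 e))

/-- The order of a subgroup between `N` and `T`. -/
theorem card {K : Subgroup G} (h1 : N ≤ K) (h2 : K ≤ T) {P : W → Prop} [DecidablePred P]
    (h : ∀ u, P u ↔ ∃ b ∈ K, π b = u) : Nat.card K = Nat.card N * (Finset.univ.filter P).card := by
  let f : T →* W := MonoidHom.mk' (fun t => π t) fun a b => c.mul _ a.2 _ b.2
  rw [card_im (f := f) (fun l => c.ker _ l.2) c.le h1 h2, ← Fintype.card_subtype, ← Nat.card_eq_fintype_card]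
  congr 1
  refine Nat.card_congr (Equiv.subtypeEquivRight fun u => ?_)
  rw [h]
  exact ⟨fun ⟨b, hb, e⟩ => ⟨b, hb, e⟩, fun ⟨b, hb, e⟩ => ⟨⟨b, h2 hb⟩, hb, e⟩⟩

/-- The derived group of `T ⟨g⟩`. -/
theorem der (k : Ac T π g φ) (g2 : g * g ∈ T) (hN : N ≤ ⁅T, T⁆) (hH : ∀ h, h ∈ H ↔ h ∈ T ∨ g * h ∈ T) :
    Nat.card (⁅H, H⁆ : Subgroup G) = Nat.card N * cnt φ := by
  have hTH : T ≤ H := fun t ht => (hH t).2 (.inl ht)
  have hg : g ∈ H := (hH g).2 (.inr g2)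
  have φφ : ∀ u, φ (φ u) = u := c.uniq (k.mul k) (c.ac_in g2)
  let B : Subgroup G :=
    { carrier := {t | t ∈ T ∧ ∃ p, π t = φ p * p}
      mul_mem' := by
        rintro a b ⟨ha, p, e⟩ ⟨hb, q, e'⟩
        exact ⟨mul_mem ha hb, p * q, by rw [c.mul _ ha _ hb, e, e', c.hom k]; ac_rfl⟩
      one_mem' := ⟨one_mem _, 1, by rw [c.one, map_one' (c.hom k), one_mul]⟩
      inv_mem' := by
        rintro a ⟨ha, p, e⟩
        exact ⟨inv_mem ha, p, by rw [c.inv ha, e]⟩ }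
  have ac : ∀ h ∈ H, Ac T π h (fun u => u) ∨ Ac T π h φ := fun h hh => ((hH h).1 hh).imp c.ac_in fun e => by
    simpa using (k.inv φφ).mul (c.ac_in e)
  have b1 : ∀ h ∈ H, ∀ t ∈ T, ⁅h, t⁆ ∈ B := fun h hh t ht => by
    rcases ac h hh with e | e
    · exact ⟨(c.comm e ht).1, 1, by rw [(c.comm e ht).2, W.sq, map_one' (c.hom k), one_mul]⟩
    · exact ⟨(c.comm e ht).1, _, (c.comm e ht).2⟩
  have b2 : ∀ h ∈ H, ∀ t ∈ B, h * t * h⁻¹ ∈ B := fun h hh t ht => by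
    simpa [commutatorElement_def] using mul_mem (b1 h hh t ht.1) ht
  have hB : ⁅H, H⁆ ≤ B := commutator_le.2 fun a ha b hb => by
    rcases (hH b).1 hb with e | e
    · exact b1 a ha b e
    rcases (hH a).1 ha with e' | e'
    · rw [← commutatorElement_inv]; exact inv_mem (b1 b hb a e')
    have := b2 a ha _ (b1 a ha _ (mul_mem (inv_mem e') e))
    rwa [show a * ⁅a, (g * a)⁻¹ * (g * b)⁆ * a⁻¹ = ⁅a, b⁆ by simp only [commutatorElement_def]; group] at this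
  refine c.card (hN.trans (commutator_mono hTH hTH)) (fun t ht => (hB ht).1) fun u => ⟨?_, ?_⟩
  · rintro ⟨p, rfl⟩
    obtain ⟨a, ha, rfl⟩ := c.surj p
    exact ⟨_, commutator_mem_commutator hg (hTH ha), (c.comm k ha).2⟩
  · rintro ⟨b, hb, rfl⟩
    exact (hB hb).2

/-- The kernel of the action on `T / N`. -/
def kr (c : Co T N π) : Subgroup G where
  carrier := {g | Ac T π g fun u => u}
  mul_mem' := fun {a b} (k : Ac T π a fun u => u) (l : Ac T π b fun u => u) => k.mul l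
  one_mem' := c.ac_in (one_mem _)
  inv_mem' := fun {a} (k : Ac T π a fun u => u) => k.inv (ψ := fun u => u) fun _ => rfl

theorem mem_kr : g ∈ c.kr ↔ Ac T π g fun u => u := Iff.rfl

theorem le_kr : T ≤ c.kr := fun _ h => c.mem_kr.2 (c.ac_in h)

theorem norm_kr (k : Ac T π g φ) : g ∈ normalizer (c.kr : Set G) :=
  mem_normalizer_of_conj_mem fun b hb => c.mem_kr.2 ⟨mul_mem (mul_mem k.1 hb.1) (inv_mem k.1), fun a ha => by
    have h1 : g⁻¹ * a * g⁻¹⁻¹ ∈ T := (conj_mem_norm (inv_mem k.1)).2 ha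
    have := k.2 _ h1
    rw [show g * (g⁻¹ * a * g⁻¹⁻¹) * g⁻¹ = a by group] at this
    rw [show g * b * g⁻¹ * a * (g * b * g⁻¹)⁻¹ = g * (b * (g⁻¹ * a * g⁻¹⁻¹) * b⁻¹) * g⁻¹ by group,
      k.2 _ ((c.mem_kr.1 hb).mem h1), hb.2 _ h1, this]⟩

theorem inj (k : Ac T π g φ) : Function.Injective φ := Finite.injective_iff_surjective.2 fun u => by
  obtain ⟨a, ha, rfl⟩ := c.surj u
  exact ⟨_, by rw [← k.2 _ ((conj_mem_norm (inv_mem k.1)).2 ha)]; congr 1; group⟩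

/-- Two elements with the same action. -/
theorem mem_kr_of (k : Ac T π g φ) (l : Ac T π h φ) : g⁻¹ * h ∈ c.kr :=
  c.mem_kr.2 ⟨mul_mem (inv_mem k.1) l.1, fun a ha => c.inj k (by
    rw [← k.2 _ ((conj_mem_norm (mul_mem (inv_mem k.1) l.1)).2 ha), ← l.2 a ha]; congr 1; group)⟩

/-- The Frattini argument. -/
theorem fratt (hs : IsSylIn 2 T c.kr) (hH : IsPGroup 2 H) (hT : T ≤ H) (hn : H ≤ normalizer (c.kr : Set G))
    (k : Ac T π g φ) (hg : ∀ h ∈ H, g * h * g⁻¹ ∈ H ⊔ c.kr) : ∃ a ∈ normalizer (H : Set G), Ac T π a φ := by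
  have s : IsSylIn 2 H (H ⊔ c.kr) := ⟨le_sup_left, hH, fun Q hQ h1 h2 => le_antisymm (fun q hq => by
    obtain ⟨a, ha, b, hb, rfl⟩ := (mem_sup_iff_of_le_normalizer hn).1 (h1 hq)
    have e := hs.eq_of_le (hQ.to_inf_left (K := c.kr)) inf_le_right (le_inf (hT.trans h2) c.le_kr)
    exact mul_mem ha (hT (e.le ⟨by simpa using mul_mem (inv_mem (h2 ha)) hq, hb⟩))) h2⟩
  have gn : g ∈ normalizer ((H ⊔ c.kr : Subgroup G) : Set G) := by
    rw [← cj_eq_iff]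
    refine cj_eq_of_le ?_
    rw [cj_sup, cj_eq_iff.2 (c.norm_kr k)]
    exact sup_le (cj_le_iff.2 hg) le_sup_right
  obtain ⟨w, hw, e⟩ := s.frattini gn
  obtain ⟨a, ha, b, hb, rfl⟩ := (mem_sup_iff_of_le_normalizer hn).1 hw
  exact ⟨b * g, by simpa [mul_assoc] using mul_mem (inv_mem (le_normalizer ha)) e, (c.mem_kr.1 hb).mul k⟩

end Co

end Cfsg.Agent.GHK.E3
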