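import Mathlib
import Cfsg.Agent.GHK.Defs
import Cfsg.Agent.FG.SectRank
import Cfsg.Agent.S0279

/-! Linear and unitary groups of dimension five of large sectional rank. -/

set_option autoImplicit false
set_option linter.unusedSectionVars false

namespace Cfsg.Agent.GHK

open Cfsg.Agent.Inv.Fz Cfsg.Agent.NE Subgroup
open scoped commutatorElement

namespace HamDk

open Matrix Equiv

variable {F : Type} [Field F]

/-- A monomial matrix. -/
def mono (σ : Perm (Fin 5)) (d : Fin 5 → F) : Matrix (Fin 5) (Fin 5) F := (diagonal d).submatrix id σ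

theorem mono_apply (σ : Perm (Fin 5)) (d : Fin 5 → F) (i j : Fin 5) : mono σ d i j = if i = σ j then d i else 0 :=
  diagonal_apply d i (σ j)

theorem mono_mul (σ τ : Perm (Fin 5)) (d e : Fin 5 → F) :
    mono σ d * mono τ e = mono (σ * τ) fun i => d i * e (σ⁻¹ i) := by
  ext i j
  rw [mul_apply, Finset.sum_eq_single (τ j) (fun k _ hk => by simp [mono_apply, hk]) (by simp)]
  by_cases h : i = σ (τ j) <;> simp [mono_apply, h]

theorem mono_one : mono 1 (fun _ => (1 : F)) = 1 := by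
  ext i j; by_cases h : i = j <;> simp [mono_apply, one_apply, h]

theorem mono_det (σ : Perm (Fin 5)) (d : Fin 5 → F) : (mono σ d).det = Perm.sign σ * ∏ i, d i := by
  rw [mono, det_permute', det_diagonal]

theorem mono_mulVec (σ : Perm (Fin 5)) (d u : Fin 5 → F) (i : Fin 5) : (mono σ d *ᵥ u) i = d i * u (σ⁻¹ i) := by
  rw [mulVec, dotProduct, Finset.sum_eq_single (σ⁻¹ i) (fun k _ hk => by
    rw [mono_apply, if_neg fun e => hk (by simp [e]), zero_mul]) (by simp)]
  simp [mono_apply]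

theorem mono_inj {σ τ : Perm (Fin 5)} {d e : Fin 5 → F} (hd : ∀ i, d i ≠ 0) (h : mono σ d = mono τ e) : σ = τ ∧ d = e := by
  have k : ∀ j, σ j = τ j ∧ d (σ j) = e (σ j) := fun j => by
    have := congrFun (congrFun h (σ j)) j
    rw [mono_apply, mono_apply, if_pos rfl] at this
    split_ifs at this with c
    exacts [⟨c, this⟩, absurd this (hd _)]
  exact ⟨Equiv.ext fun j => (k j).1, funext fun i => by simpa using (k (σ⁻¹ i)).2⟩

/-- The monomial matrices of the group `(C₄ ∘ D₈) × 2 × 2 × 2`. -/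
structure Ok (σ : Perm (Fin 5)) (d : Fin 5 → F) : Prop where
  s : σ = 1 ∨ σ = swap 0 1
  h0 : d 0 ^ 4 = 1
  h1 : d 1 ^ 2 = d 0 ^ 2
  h2 : d 2 ^ 2 = 1
  h3 : d 3 ^ 2 = 1
  h4 : d 4 ^ 2 = 1

theorem sw : (swap (0 : Fin 5) 1)⁻¹ 0 = 1 ∧ (swap (0 : Fin 5) 1)⁻¹ 1 = 0 ∧ (swap (0 : Fin 5) 1)⁻¹ 2 = 2 ∧
    (swap (0 : Fin 5) 1)⁻¹ 3 = 3 ∧ (swap (0 : Fin 5) 1)⁻¹ 4 = 4 := by decide

theorem Ok.four {σ : Perm (Fin 5)} {d : Fin 5 → F} (h : Ok σ d) (i : Fin 5) : d i ^ 4 = 1 := by
  have a1 : d 1 ^ 4 = 1 := by linear_combination h.h0 + (d 1 ^ 2 + d 0 ^ 2) * h.h1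
  have a2 : d 2 ^ 4 = 1 := by linear_combination (d 2 ^ 2 + 1) * h.h2
  have a3 : d 3 ^ 4 = 1 := by linear_combination (d 3 ^ 2 + 1) * h.h3
  have a4 : d 4 ^ 4 = 1 := by linear_combination (d 4 ^ 2 + 1) * h.h4
  fin_cases i
  exacts [h.h0, a1, a2, a3, a4]

theorem Ok.mul {σ τ : Perm (Fin 5)} {d e : Fin 5 → F} (h : Ok σ d) (k : Ok τ e) : Ok (σ * τ) fun i => d i * e (σ⁻¹ i) := by
  refine ⟨?_, by rw [mul_pow, h.four, k.four, one_mul], ?_, ?_, ?_, ?_⟩
  · rcases h.s with rfl | rfl <;> rcases k.s with rfl | rfl <;> simp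
  all_goals
    rcases h.s with rfl | rfl <;>
      simp only [mul_pow, inv_one, Perm.one_apply, sw.1, sw.2.1, sw.2.2.1, sw.2.2.2.1, sw.2.2.2.2, h.h1, h.h2, h.h3, h.h4,
        k.h1, k.h2, k.h3, k.h4, mul_one]

theorem Ok.sq {σ : Perm (Fin 5)} {d : Fin 5 → F} (h : Ok σ d) :
    mono σ d * mono σ d = 1 ∨ mono σ d * mono σ d = mono 1 ![-1, -1, 1, 1, 1] := by
  have k : ∃ u : F, u * u = 1 ∧ mono σ d * mono σ d = mono 1 ![u, u, 1, 1, 1] := by
    have h0 := h.h0; have h1 := h.h1; have h2 := h.h2; have h3 := h.h3; have h4 := h.h4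
    rw [mono_mul]
    rcases h.s with rfl | rfl
    · refine ⟨d 0 * d 0, by linear_combination h0, congrArg₂ _ (one_mul _) (funext fun i => ?_)⟩
      fin_cases i
      exacts [rfl, (by linear_combination h1 : d 1 * d 1 = d 0 * d 0), (by linear_combination h2 : d 2 * d 2 = 1),
        (by linear_combination h3 : d 3 * d 3 = 1), (by linear_combination h4 : d 4 * d 4 = 1)]
    · refine ⟨d 0 * d 1, by linear_combination h0 + d 0 ^ 2 * h1, congrArg₂ _ (swap_mul_self _ _) (funext fun i => ?_)⟩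
      fin_cases i
      exacts [rfl, mul_comm (d 1) (d 0), (by linear_combination h2 : d 2 * d 2 = 1),
        (by linear_combination h3 : d 3 * d 3 = 1), (by linear_combination h4 : d 4 * d 4 = 1)]
  obtain ⟨u, hu, e⟩ := k
  rcases mul_self_eq_one_iff.1 hu with rfl | rfl
  · refine Or.inl (e.trans (Eq.trans (congrArg _ (funext fun i => ?_)) mono_one))
    fin_cases i <;> rfl
  · exact Or.inr e

theorem key {X : Type} [Group X] [Finite X] (ι : X →* Matrix (Fin 5) (Fin 5) F) (hι : Function.Injective ι) {i : F}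
    (hi : i * i = -1) (h2 : (2 : F) ≠ 0) (hz : ∀ z ∈ center X, z ^ 5 = 1)
    (hm : ∀ σ d, Ok σ d → (mono σ d).det = 1 → ∃ g, ι g = mono σ d) : ¬ Cfsg.SectionalPRankLE 2 4 (X ⧸ center X) := by
  intro h
  have okn : Ok 1 (![-1, -1, 1, 1, 1] : Fin 5 → F) := ⟨.inl rfl, by simp; norm_num, rfl, by simp, by simp, by simp⟩
  obtain ⟨ν, hν⟩ := hm _ _ okn (by simp [mono_det, Fin.prod_univ_succ])
  have ν2 : ν * ν = 1 := hι (by
    rw [map_mul, hν, map_one, mono_mul, one_mul, ← mono_one]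
    refine congrArg _ (funext fun i => ?_)
    fin_cases i <;> simp)
  have sq : ∀ {g σ d}, Ok σ d → ι g = mono σ d → g * g = 1 ∨ g * g = ν := fun {g σ d} o e =>
    o.sq.imp (fun c => hι (by rw [map_mul, e, c, map_one])) fun c => hι (by rw [map_mul, e, c, hν])
  have g4 : ∀ {g σ d}, Ok σ d → ι g = mono σ d → g * g * (g * g) = 1 := fun o e => by
    rcases sq o e with c | c <;> rw [c]
    exacts [one_mul _, ν2]
  have mul : ∀ {a b : X}, (∃ σ d, Ok σ d ∧ ι a = mono σ d) → (∃ σ d, Ok σ d ∧ ι b = mono σ d) →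
      ∃ σ d, Ok σ d ∧ ι (a * b) = mono σ d := fun ⟨_, _, o, e⟩ ⟨_, _, o', e'⟩ =>
    ⟨_, _, o.mul o', by rw [map_mul, e, e', mono_mul]⟩
  let H : Subgroup X :=
    { carrier := {g | ∃ σ d, Ok σ d ∧ ι g = mono σ d}
      mul_mem' := mul
      one_mem' := ⟨1, fun _ => 1, ⟨.inl rfl, one_pow _, rfl, one_pow _, one_pow _, one_pow _⟩, by rw [map_one, mono_one]⟩
      inv_mem' := fun {g} hg => by
        obtain ⟨σ, d, o, e⟩ := id hg
        rw [inv_eq_of_mul_eq_one_left (show g * g * g * g = 1 by rw [mul_assoc (g * g), g4 o e])]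
        exact mul (mul hg hg) hg }
  have h1 := FG.SR.of_injective h ((QuotientGroup.mk' (center X)).comp H.subtype) (by
    rw [injective_iff_map_eq_one]
    rintro ⟨g, σ, d, o, e⟩ c
    have := hz g ((QuotientGroup.eq_one_iff g).1 c)
    rw [show g ^ 5 = g * g * (g * g) * g by simp only [pow_succ, pow_zero, one_mul, mul_assoc], g4 o e, one_mul] at this
    exact Subtype.ext this)
  let n : H := ⟨ν, _, _, okn, hν⟩
  have h3 := FG.SR.relIndex_le_two h1 (N := zpowers n) (H := ⊤) fun x _ => by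
    obtain ⟨σ, d, o, e⟩ := x.2
    rcases sq o e with c | c
    · rw [show x ^ 2 = 1 from Subtype.ext (by rw [pow_two]; exact c)]; exact one_mem _
    · rw [show x ^ 2 = n from Subtype.ext (by rw [pow_two]; exact c)]; exact mem_zpowers _
  have h4 : Nat.card (zpowers n) ≤ 2 := by
    rw [Nat.card_zpowers]
    exact orderOf_le_of_pow_eq_one two_pos (Subtype.ext (by rw [pow_two]; exact ν2))
  have h5 := (zpowers n).card_mul_index
  rw [relIndex_top_right] at h3
  have i0 : i ≠ 0 := fun c => by simp [c] at hi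
  have m1 : (1 : F) ≠ -1 := fun c => h2 (by linear_combination c)
  have i1 : i ≠ 1 := fun c => m1 (by rw [← hi, c, one_mul])
  have i2 : i ≠ -1 := fun c => m1 (by rw [← hi, c]; ring)
  let u : Fin 4 → F := ![1, -1, i, -i]
  let ε : Bool → F := fun b => if b then -1 else 1
  let s : Bool → Perm (Fin 5) := fun b => if b then swap 0 1 else 1
  have u4 : ∀ k, u k ^ 4 = 1 := fun k => by
    have : i ^ 4 = 1 := by linear_combination (i * i - 1) * hi
    fin_cases k
    exacts [one_pow _, (by norm_num : (-1 : F) ^ 4 = 1), this, (by linear_combination this : (-i) ^ 4 = 1)]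
  have ε2 : ∀ b, ε b ^ 2 = 1 := fun b => by cases b <;> simp [ε]
  have i3 : (1 : F) ≠ -i := fun c => i2 (by linear_combination c)
  have i4 : i ≠ -i := fun c => mul_ne_zero h2 i0 (by linear_combination c)
  have ui : Function.Injective u := fun a b e => by
    fin_cases a <;> fin_cases b <;> first | rfl | exfalso
    all_goals simp [u, m1, m1.symm, i1, i1.symm, i2, i2.symm, i3, i3.symm, i4, i4.symm] at e
  have εi : Function.Injective ε := fun a b e => by cases a <;> cases b <;> simp [ε, m1, m1.symm] at e ⊢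
  have si : Function.Injective s := fun a b e => by
    cases a <;> cases b <;> first | rfl | exact absurd e (by decide)
  let D : Bool × Fin 4 × Bool × Bool × Bool → Fin 5 → F := fun p =>
    ![u p.2.1, ε p.2.2.1 * u p.2.1, ε p.2.2.2.1, ε p.2.2.2.2, ε p.1 * (u p.2.1 * (ε p.2.2.1 * u p.2.1) * ε p.2.2.2.1 * ε p.2.2.2.2)]
  have e4 : ∀ p, D p 4 ^ 2 = 1 := fun p => by
    have := u4 p.2.1
    change (ε p.1 * (u p.2.1 * (ε p.2.2.1 * u p.2.1) * ε p.2.2.2.1 * ε p.2.2.2.2)) ^ 2 = 1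
    simp only [mul_pow, ε2]
    linear_combination this
  have ok : ∀ p, Ok (s p.1) (D p) := fun p =>
    ⟨by cases p.1 <;> simp [s], u4 _, (mul_pow _ _ _).trans (by rw [ε2, one_mul]; rfl), ε2 _, ε2 _, e4 p⟩
  have dt : ∀ p, (mono (s p.1) (D p)).det = 1 := fun p => by
    have e : ((Perm.sign (s p.1) : ℤ) : F) = ε p.1 := by cases p.1 <;> simp [s, ε]
    rw [mono_det, e, Fin.prod_univ_five, ← e4 p, pow_two, ← mul_assoc]
    rfl
  choose f hf using fun p => hm _ _ (ok p) (dt p)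
  have h6 := Nat.card_le_card_of_injective (fun p => (⟨f p, _, _, ok p, hf p⟩ : H)) fun p q e => by
    obtain ⟨a, b⟩ := mono_inj (fun j c => by simpa [c] using (ok p).four j)
      ((hf p).symm.trans ((congrArg (fun x : H => ι x) e).trans (hf q)))
    have b0 : p.2.1 = q.2.1 := ui (congrFun b 0)
    have b1 : ε p.2.2.1 * u p.2.1 = ε q.2.2.1 * u q.2.1 := congrFun b 1
    rw [b0] at b1
    exact Prod.ext (si a) (Prod.ext b0 (Prod.ext (εi (mul_right_cancel₀ (fun c => by simpa [c] using u4 q.2.1) b1))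
      (Prod.ext (εi (congrFun b 2)) (εi (congrFun b 3)))))
  rw [show Nat.card (Bool × Fin 4 × Bool × Bool × Bool) = 64 by simp] at h6
  have := Nat.mul_le_mul h4 h3
  omega

theorem exists_i [Fintype F] (h : Fintype.card F % 4 = 1) : (∃ i : F, i * i = -1) ∧ (2 : F) ≠ 0 :=
  ⟨(FiniteField.isSquare_neg_one_iff.2 (by omega)).imp fun _ e => e.symm,
    Ring.two_ne_zero fun c => by have := FiniteField.even_card_iff_char_two.1 c; omega⟩

end HamDk

variable {G : Type*} [Group G] [Finite G] {S P R K L N T V A B U : Subgroup G} {x s g b : G} {n : ℕ}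

theorem not_rank_psl5 {F : Type} [Field F] [Fintype F] (h : Fintype.card F % 4 = 1) :
    ¬ Cfsg.SectionalPRankLE 2 4 (Matrix.ProjectiveSpecialLinearGroup (Fin 5) F) := by
  obtain ⟨⟨i, hi⟩, h2⟩ := HamDk.exists_i h
  refine HamDk.key (slToMat 5 F) Subtype.val_injective hi h2 (fun z hz => ?_) fun σ d _ e => ⟨⟨_, e⟩, rfl⟩
  obtain ⟨r, h1, e⟩ := Matrix.SpecialLinearGroup.mem_center_iff.1 hz
  exact Subtype.ext (by rw [Matrix.SpecialLinearGroup.coe_pow, ← e, ← map_pow, show r ^ 5 = 1 from h1, map_one]; rfl)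

theorem not_rank_psu5 {F : Type} [Field F] [Fintype F] {q : ℕ} (hF : Fintype.card F = q ^ 2) (h : q % 4 = 3) :
    ¬ Cfsg.SectionalPRankLE 2 4 (Cfsg.PSU 5 F q) := by
  obtain ⟨⟨i, hi⟩, h2⟩ := HamDk.exists_i (F := F) (by rw [hF, Nat.pow_mod, h])
  refine HamDk.key ((slToMat 5 F).comp (SU 5 F q).subtype) (Subtype.val_injective.comp Subtype.val_injective) hi h2
    (fun z hz => orderOf_dvd_iff_pow_eq_one.1 ((orderOf_dvd_natCard _ hz).trans ?_)) fun σ d o e => ⟨⟨⟨_, e⟩, fun u v => ?_⟩, rfl⟩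
  · rw [S0279.result hF 5 (by norm_num)]
    exact Nat.gcd_dvd_left _ _
  · have k : ∀ j, d j * d j ^ q = 1 := fun j => by
      rw [← pow_succ', show q + 1 = 4 * ((q + 1) / 4) by omega, pow_mul, o.four, one_pow]
    change hermForm 5 F q (Matrix.mulVec (HamDk.mono σ d) u) (Matrix.mulVec (HamDk.mono σ d) v) = _
    simp only [hermForm, HamDk.mono_mulVec, mul_pow, mul_mul_mul_comm (d _), k, one_mul]
    exact Equiv.sum_comp σ⁻¹ fun j => u j * v j ^ q

end Cfsg.Agent.GHK
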